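import Cfsg.Agent.H69.DirectP
import Cfsg.Agent.H72.ClassSize
import Cfsg.Agent.H75.LocNPC

/-!
# Class sizes `1, m, mn` with `(m,n)=1`: the normal `p`-complement (helper15)
-/

set_option autoImplicit false
set_option linter.style.haveILetI false
set_option linter.unusedSectionVars false

namespace Cfsg.Agent.H15Cls

open Subgroup Cfsg.Agent.H72

universe u

variable {G : Type u} [Group G] [Finite G] {p : ℕ} [hp : Fact p.Prime]

/-- the hypothesis: all noncentral elements have the same `p`-part of the class size. -/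
def SameP (G : Type u) [Group G] (p a : ℕ) : Prop :=
  1 ≤ a ∧ ∀ g : G, g ∉ center G → (Cx g).index.factorization p = a

theorem commute_iff_mem {x z : G} : z ∈ Cx x ↔ Commute x z := by
  rw [mem_Cx]
  exact ⟨fun h => h.symm, fun h => h.symm⟩

theorem not_dvd_index_cx {a : ℕ} (h : SameP G p a) {x : G} (hx : x ∉ center G)
    {j : ℕ} (hxp : orderOf x = p ^ j) (z : Cx x) (hz : (orderOf z).Coprime p) :
    ¬ p ∣ (centralizer ({z} : Set (Cx x))).index := by
  have hzc : Commute x (z : G) := commute_iff_mem.1 z.2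
  have hco : (orderOf x).Coprime (orderOf (z : G)) := by
    rw [hxp, Subgroup.orderOf_coe]
    exact Nat.Coprime.pow_left _ hz.symm
  have e1 : centralizer ({z} : Set (Cx x)) = (Cx (z : G)).subgroupOf (Cx x) := by
    ext w
    rw [mem_subgroupOf, mem_Cx, H69.mem_cent_singleton, Subtype.ext_iff]
    exact eq_comm
  have e2 : Cx (x * (z : G)) = Cx x ⊓ Cx (z : G) := H69.cent_mul_eq_inf hzc hco
  have hnc : x * (z : G) ∉ center G := by
    intro hc
    apply hx
    rw [← Cx_index_eq_one_iff] at hc ⊢
    have : (Cx x).index ∣ (Cx (x * (z : G))).index := Subgroup.index_dvd_of_le (by rw [e2]; exact inf_le_left)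
    rw [hc] at this
    exact Nat.dvd_one.1 this
  have e3 : (Cx (z : G)).relIndex (Cx x) * (Cx x).index = (Cx (x * (z : G))).index := by
    rw [e2, ← inf_relIndex_left]
    exact relIndex_mul_index inf_le_left
  have hne : (Cx (z : G)).relIndex (Cx x) ≠ 0 :=
    Subgroup.index_ne_zero_of_finite (H := (Cx (z : G)).subgroupOf (Cx x))
  have e4 := congrArg (fun t => Nat.factorization t p) e3
  rw [Nat.factorization_mul hne index_ne_zero_of_finite, Finsupp.add_apply, h.2 x hx, h.2 _ hnc] at e4
  rw [e1]
  intro hd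
  have := (hp.out.dvd_iff_one_le_factorization hne).1 hd
  omega

/-- Lemma L1: in the centralizer of a noncentral `p`-element, `p`-elements and `p'`-elements commute. -/
theorem commute_of_cx {a : ℕ} (h : SameP G p a) {x : G} (hx : x ∉ center G)
    {j : ℕ} (hxp : orderOf x = p ^ j) {z t : G} (hz : Commute x z) (hzo : (orderOf z).Coprime p)
    (ht : Commute x t) {i : ℕ} (hto : orderOf t = p ^ i) : Commute z t := by
  have hK : ∀ y : Cx x, (orderOf y).Coprime p → ¬ p ∣ (centralizer ({y} : Set (Cx x))).index :=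
    fun y hy => not_dvd_index_cx h hx hxp y hy
  obtain ⟨P⟩ : Nonempty (Sylow p (Cx x)) := inferInstance
  have hPn := H69.sylow_normal_of_forall hK P
  haveI := Sylow.unique_of_normal P hPn
  let t' : Cx x := ⟨t, commute_iff_mem.2 ht⟩
  let z' : Cx x := ⟨z, commute_iff_mem.2 hz⟩
  have hz' : z' ∈ centralizer ((P : Subgroup (Cx x)) : Set (Cx x)) :=
    H69.mem_centralizer_sylow_of_forall hK P (by rw [Subgroup.orderOf_mk]; exact hzo)
  have ht' : t' ∈ (P : Subgroup (Cx x)) := by
    have h1 : IsPGroup p (zpowers t') :=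
      IsPGroup.of_card (n := i) (by rw [Nat.card_zpowers, Subgroup.orderOf_mk, hto])
    obtain ⟨R, hR⟩ := h1.exists_le_sylow
    have : R = P := Subsingleton.elim _ _
    rw [← this]
    exact hR (mem_zpowers _)
  have := mem_centralizer_iff.1 hz' t' ht'
  exact (congrArg Subtype.val this).symm

theorem hasNPC_cx {a : ℕ} (h : SameP G p a) {x : G} (hx : x ∉ center G)
    {j : ℕ} (hxp : orderOf x = p ^ j) : HasNormalPComplement p (Cx x) :=
  H69.hasNPC_of_forall fun y hy => not_dvd_index_cx h hx hxp y hy

/-- there are noncentral `p`-elements in each Sylow subgroup -/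
theorem exists_noncentral_sylow {a : ℕ} (h : SameP G p a) (hne : ∃ g : G, g ∉ center G) (P : Sylow p G) :
    ∃ x ∈ (P : Subgroup G), x ∉ center G := by
  by_contra hcon
  push Not at hcon
  obtain ⟨g, hg⟩ := hne
  have h1 := h.2 g hg
  have h2 : (P : Subgroup G) ≤ Cx g := fun x hx => center_le_Cx g (hcon x hx)
  have h3 := H69.factorization_index_eq_zero_of_sylow_le P h2
  have := h.1
  omega

/-- each element commutes with some noncentral `p`-element -/
theorem exists_commute {a : ℕ} (h : SameP G p a) (hne : ∃ g : G, g ∉ center G) (z : G) :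
    ∃ x : G, x ∉ center G ∧ (∃ j, orderOf x = p ^ j) ∧ Commute x z := by
  obtain ⟨P⟩ : Nonempty (Sylow p G) := inferInstance
  obtain ⟨x, hxP, hx⟩ := exists_noncentral_sylow h hne P
  have hxo := H69.orderOf_of_mem_isPGroup P.2 hxP
  by_cases hz : z ∈ center G
  · exact ⟨x, hx, hxo, (mem_center_iff.1 hz x)⟩
  by_contra hcon
  push Not at hcon
  obtain ⟨T⟩ : Nonempty (Sylow p (Cx z)) := inferInstance
  set T' : Subgroup G := (T : Subgroup (Cx z)).map (Cx z).subtype with hT'
  have hT'p : IsPGroup p T' := T.2.map _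
  have hT'c : T' ≤ center G := by
    intro t ht
    by_contra htc
    refine hcon t htc (H69.orderOf_of_mem_isPGroup hT'p ht) ?_
    have : t ∈ Cx z := map_subtype_le _ ht
    exact (commute_iff_mem.1 this).symm
  haveI hT'n : T'.Normal := by
    refine ⟨fun n hn g => ?_⟩
    have := mem_center_iff.1 (hT'c hn) g
    rw [this, mul_inv_cancel_right]
    exact hn
  have hxz : IsPGroup p (zpowers x) := by
    obtain ⟨j, hj⟩ := hxo
    exact IsPGroup.of_card (n := j) (by rw [Nat.card_zpowers, hj])
  have hsup : IsPGroup p (zpowers x ⊔ T' : Subgroup G) := IsPGroup.to_sup_of_normal_right hxz hT'p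
  have hle : zpowers x ⊔ T' ≤ Cx x := by
    refine sup_le ?_ (hT'c.trans (center_le_Cx x))
    rw [zpowers_le]
    exact commute_iff_mem.2 (Commute.refl x)
  have hcx := H69.index_factorization_add (Cx x) p
  have hcz := H69.index_factorization_add (Cx z) p
  rw [h.2 x hx] at hcx
  rw [h.2 z hz] at hcz
  have hTcard : Nat.card T' = p ^ (Nat.card (Cx z)).factorization p := by
    rw [hT', Nat.card_congr ((T : Subgroup (Cx z)).equivMapOfInjective _ (Cx z).subtype_injective).toEquiv.symm]
    exact T.card_eq_multiplicity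
  obtain ⟨j, hj⟩ := IsPGroup.iff_card.1 hsup
  have hjle : j ≤ (Nat.card (Cx x)).factorization p := by
    rw [← hp.out.pow_dvd_iff_le_factorization Nat.card_pos.ne', ← hj]
    exact Subgroup.card_dvd_of_le hle
  have hcard : Nat.card (zpowers x ⊔ T' : Subgroup G) ≤ Nat.card T' := by
    rw [hTcard, hj]
    exact Nat.pow_le_pow_right hp.out.pos (by omega)
  have heq : T' = zpowers x ⊔ T' := Subgroup.eq_of_le_of_card_ge le_sup_right hcard
  apply hx
  apply hT'c
  rw [heq]
  exact mem_sup_left (mem_zpowers x)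

theorem centralizer_zpowers_eq (x : G) : centralizer ((zpowers x : Subgroup G) : Set G) = Cx x := by
  apply le_antisymm
  · exact centralizer_le (by rw [Set.singleton_subset_iff]; exact mem_zpowers x)
  · intro z hz
    rw [mem_centralizer_iff]
    rintro _ ⟨i, rfl⟩
    exact (commute_iff_mem.1 hz).zpow_left i

theorem hasNPC_of_sameP {a : ℕ} (h : SameP G p a) : HasNormalPComplement p G := by
  by_cases hne : ∃ g : G, g ∉ center G
  · refine H75.LocNPC.hasNPC_of_centralizers p fun z _ => ?_
    obtain ⟨x, hx, ⟨j, hj⟩, hxz⟩ := exists_commute h hne z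
    refine ⟨zpowers x, IsPGroup.of_card (n := j) (by rw [Nat.card_zpowers, hj]), ?_, ?_⟩
    · rw [centralizer_zpowers_eq]
      exact commute_iff_mem.2 hxz
    · rw [centralizer_zpowers_eq]
      exact hasNPC_cx h hx hj
  · push Not at hne
    obtain ⟨P⟩ : Nonempty (Sylow p G) := inferInstance
    refine Transfer.hasNPC_of_normalizer_le_centralizer P fun g _ => ?_
    rw [mem_centralizer_iff]
    intro t _
    exact (mem_center_iff.1 (hne g) t)

/-- Two primes cannot both have constant nontrivial part. -/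
theorem sameP_unique {a : ℕ} (h : SameP G p a) {q : ℕ} [hq : Fact q.Prime] {b : ℕ} (h' : SameP G q b)
    (hne : ∃ g : G, g ∉ center G) : p = q := by
  by_contra hpq
  obtain ⟨N, hNn, hNc, k, hNk⟩ := Transfer.hasNPC_iff_exists.1 (hasNPC_of_sameP h)
  have hq' := hasNPC_of_sameP h'
  obtain ⟨Q⟩ : Nonempty (Sylow q G) := inferInstance
  have hQN : (Q : Subgroup G) ≤ N := by
    intro x hx
    rw [Transfer.mem_iff_coprime_of_card_of_index hNc hNk]
    obtain ⟨j, hj⟩ := H69.orderOf_of_mem_isPGroup Q.2 hx
    rw [hj]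
    exact Nat.Coprime.pow_left _ ((Nat.coprime_primes hq.out hp.out).2 (Ne.symm hpq))
  have hFr : normalizer ((Q : Subgroup G) : Set G) ⊔ N = ⊤ := Sylow.normalizer_sup_eq_top' Q hQN
  -- p does not divide the index of the normalizer
  have h1 : ¬ p ∣ (normalizer ((Q : Subgroup G) : Set G)).index := by
    have e1 : N.relIndex (normalizer ((Q : Subgroup G) : Set G)) = p ^ k := by
      rw [← relIndex_sup_right, hFr, relIndex_top_right, hNk]
    have e2 : (normalizer ((Q : Subgroup G) : Set G)).relIndex N * N.index =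
        N.relIndex (normalizer ((Q : Subgroup G) : Set G)) *
          (normalizer ((Q : Subgroup G) : Set G)).index := by
      rw [← inf_relIndex_right, relIndex_mul_index inf_le_right,
        ← inf_relIndex_right N, relIndex_mul_index inf_le_right, inf_comm]
    rw [e1, hNk, mul_comm] at e2
    have e3 := Nat.eq_of_mul_eq_mul_left (pow_pos hp.out.pos k) e2
    rw [← e3]
    intro hd
    have hd2 : p ∣ Nat.card N := hd.trans (relIndex_dvd_card _ _)
    exact (Nat.Prime.coprime_iff_not_dvd hp.out).1 hNc.symm hd2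
  obtain ⟨P, hP⟩ := H69.exists_sylow_le_of_not_dvd_index h1
  obtain ⟨x, hxP, hx⟩ := exists_noncentral_sylow h hne P
  have hxQ : x ∈ centralizer ((Q : Subgroup G) : Set G) := by
    refine Transfer.HasNPC.mem_centralizer hq' Q.2 (hP hxP) ?_
    obtain ⟨j, hj⟩ := H69.orderOf_of_mem_isPGroup P.2 hxP
    rw [hj]
    exact Nat.Coprime.pow_left _ ((Nat.coprime_primes hp.out hq.out).2 hpq)
  have hle : (Q : Subgroup G) ≤ Cx x := by
    intro y hy
    rw [mem_Cx]
    exact mem_centralizer_iff.1 hxQ y hy
  have h3 := H69.factorization_index_eq_zero_of_sylow_le Q hle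
  have := h'.2 x hx
  have := h'.1
  omega

end Cfsg.Agent.H15Cls
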