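import Cfsg.Agent.H15Cls.CaseII
import Cfsg.Agent.Cop.GenAb
import Cfsg.Agent.H76.PGroups

/-!
# Class sizes `1, m, mn` with `(m,n)=1`: the main case (helper15)
-/

set_option autoImplicit false
set_option linter.style.haveILetI false
set_option linter.unusedSectionVars false

namespace Cfsg.Agent.H15Cls

open Subgroup Cfsg.Agent.H72
open scoped commutatorElement

universe u

variable {G : Type u} [Group G] [Finite G] {p : ℕ} [hp : Fact p.Prime] {a n k : ℕ} {N P : Subgroup G}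

namespace Dat

theorem caseI (d : Dat p a n k N P) : ∃ x ∈ P, N ≤ Cx x ∧ x ∉ center G := by
  by_contra hcon
  push Not at hcon
  have hII : ∀ x ∈ P, N ≤ Cx x → x ∈ center G := hcon
  by_cases hab : ∀ v ∈ N, N ≤ Cx v
  · exact d.abelian_case hII hab
  · push Not at hab
    exact d.nonabelian_case hII hab

/-- `C_P(N)` -/
def P0 (N P : Subgroup G) : Subgroup G := P ⊓ centralizer (N : Set G)

theorem mem_P0 {t : G} : t ∈ P0 N P ↔ t ∈ P ∧ N ≤ Cx t := by
  rw [P0, mem_inf]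
  refine and_congr_right fun _ => ?_
  rw [mem_centralizer_iff]
  constructor
  · intro h y hy
    rw [mem_Cx]; exact h y hy
  · intro h y hy
    exact mem_Cx.1 (h hy)

variable (d : Dat p a n k N P)

include d

theorem cx_le_P0 {x : G} (hx : x ∈ P0 N P) (hxc : x ∉ center G) : Cx x ⊓ P ≤ P0 N P := by
  obtain ⟨hxP, hxN⟩ := mem_P0.1 hx
  rintro t ⟨ht1, ht2⟩
  refine mem_P0.2 ⟨ht2, fun z hz => ?_⟩
  exact commute_iff_mem.2 (d.comm hxP hxc hz (commute_iff_mem.1 (hxN hz)) ht2 (commute_iff_mem.1 ht1)).symm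

theorem relIndex_P0 : (P0 N P).relIndex P = p ^ a := by
  obtain ⟨x, hxP, hxN, hxc⟩ := d.caseI
  obtain ⟨z, hz, hzc⟩ := d.exists_N_noncentral
  obtain ⟨r, h1, h2, h3⟩ := exists_retr d.hNn d.hsup d.hinf
  have e := index_sup h1 h2 h3 (Cx z)
  rw [d.hF1 z hzc] at e
  have hx0 : x ∈ P0 N P := mem_P0.2 ⟨hxP, hxN⟩
  apply Nat.dvd_antisymm
  · rw [← d.relIndex_x hxP hxc, ← inf_relIndex_right (Cx x) P]
    exact relIndex_dvd_of_le_left P (d.cx_le_P0 hx0 hxc)
  · rw [e]
    refine relIndex_dvd_of_le_left P ?_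
    intro t ht
    obtain ⟨htP, htN⟩ := mem_P0.1 ht
    exact ⟨t, commute_iff_mem.2 (commute_iff_mem.1 (htN hz)).symm, h2 t htP⟩

theorem P0_comm {x y : G} (hx : x ∈ P0 N P) (hy : y ∈ P0 N P) : Commute x y := by
  by_cases hxc : x ∈ center G
  · exact (mem_center_iff.1 hxc y).symm
  have h1 := le_of_relIndex_eq (P := P) (A := Cx x) (B := P0 N P) (d.cx_le_P0 hx hxc)
    (by rw [d.relIndex_P0, d.relIndex_x (mem_P0.1 hx).1 hxc])
  exact commute_iff_mem.1 (h1 ⟨hy, (mem_P0.1 hy).1⟩)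

theorem mem_center_of_comm_t {t : G} (ht : t ∈ P) (ht0 : t ∉ P0 N P) {z : G} (hz : z ∈ N)
    (htz : Commute t z) : z ∈ center G := by
  by_contra hzc
  obtain ⟨r, h1, h2, h3⟩ := exists_retr d.hNn d.hsup d.hinf
  have e := index_sup h1 h2 h3 (Cx z)
  rw [d.hF1 z hzc] at e
  have h4 := le_of_relIndex_eq (P := P) (A := P0 N P) (B := (Cx z).map r) (by
    rintro s ⟨hs, hs2⟩
    obtain ⟨hsP, hsN⟩ := mem_P0.1 hs
    exact ⟨s, commute_iff_mem.2 (commute_iff_mem.1 (hsN hz)).symm, h2 s hsP⟩)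
    (by rw [d.relIndex_P0, ← e])
  exact ht0 (h4 ⟨⟨t, commute_iff_mem.2 htz.symm, h2 t ht⟩, ht⟩)

theorem exists_t : ∃ t ∈ P, t ∉ P0 N P := by
  by_contra hcon
  push Not at hcon
  have h1 : (P0 N P).relIndex P = 1 := relIndex_eq_one.2 hcon
  rw [d.relIndex_P0] at h1
  have h2 : 1 < p ^ a := Nat.one_lt_pow (by have := d.same.1; omega) hp.out.one_lt
  omega

theorem not_center_t {t : G} (ht0 : t ∉ P0 N P) (ht : t ∈ P) : t ∉ center G := by
  intro hc
  apply ht0
  exact mem_P0.2 ⟨ht, fun y _ => commute_iff_mem.2 (mem_center_iff.1 hc y).symm⟩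

theorem center_relIndex : (center G).relIndex N = n := by
  obtain ⟨t, ht, ht0⟩ := d.exists_t
  have htc := d.not_center_t ht0 ht
  have h1 : Cx t ⊓ N = center G ⊓ N := by
    apply le_antisymm
    · rintro z ⟨hz1, hz2⟩
      exact ⟨d.mem_center_of_comm_t ht ht0 hz2 (commute_iff_mem.1 hz1), hz2⟩
    · exact inf_le_inf_right _ (center_le_Cx t)
  have h2 : (Cx t).relIndex N = (center G).relIndex N := by
    rw [← inf_relIndex_right, h1, inf_relIndex_right]
  rcases d.hF2 t htc with h | h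
  · exfalso
    rw [h2] at h
    obtain ⟨z, hz, hzc⟩ := d.exists_N_noncentral
    exact hzc (relIndex_eq_one.1 h hz)
  · rw [← h2, h]

theorem N_comm {z : G} (hz : z ∈ N) : N ≤ Cx z := by
  by_cases hzc : z ∈ center G
  · intro y _; exact commute_iff_mem.2 (mem_center_iff.1 hzc y).symm
  rcases d.hF2 z hzc with h | h
  · exact relIndex_eq_one.1 h
  · exfalso
    have h1 := le_of_relIndex_eq (P := N) (A := center G) (B := Cx z) (inf_le_left.trans (center_le_Cx z))
      (by rw [d.center_relIndex, h])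
    exact hzc (h1 ⟨commute_iff_mem.2 (Commute.refl z), hz⟩)

theorem P0_norm : ∀ x ∈ P, ∀ y ∈ P0 N P, x * y * x⁻¹ ∈ P0 N P := by
  intro x hx y hy
  haveI := d.hNn
  refine ⟨P.mul_mem (P.mul_mem hx hy.1) (P.inv_mem hx), ?_⟩
  haveI : (centralizer (N : Set G)).Normal := Subgroup.normal_centralizer
  exact Normal.conj_mem inferInstance y hy.2 x

/-- the special element -/
theorem exists_x : ∃ x ∈ P0 N P, x ∉ center G ∧ x ^ p ∈ center G ∧ ∀ y ∈ P, ∃ c ∈ center G, y * x * y⁻¹ = x * c := by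
  obtain ⟨x, hxP, hxN, hxc⟩ := d.caseI
  exact d.exists_second inf_le_left d.P0_norm ⟨x, mem_P0.2 ⟨hxP, hxN⟩, hxc⟩

theorem pow_mem_P0 {y : G} (hy : y ∈ P) : y ^ p ∈ P0 N P := by
  obtain ⟨x, hx, hxc, hxp, hxy⟩ := d.exists_x
  obtain ⟨c, hc, hyc⟩ := hxy y hy
  have hcc : ∀ g : G, Commute g c := fun g => mem_center_iff.1 hc g
  refine d.cx_le_P0 hx hxc ⟨?_, P.pow_mem hy p⟩
  have h1 : (x * c) ^ p = x ^ p * c ^ p := (hcc x).mul_pow p
  have h2 : y * x ^ p * y⁻¹ = x ^ p * c ^ p := by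
    rw [← h1, ← hyc, conj_pow]
  have h3 : y * x ^ p * y⁻¹ = x ^ p := by
    rw [mem_center_iff.1 hxp y]; group
  have h4 : c ^ p = 1 := by
    rw [h3] at h2
    exact (mul_eq_left.1 h2.symm)
  have h5 : ∀ i : ℕ, y ^ i * x * (y ^ i)⁻¹ = x * c ^ i := by
    intro i
    induction i with
    | zero => simp
    | succ i ih =>
      have : y ^ (i + 1) * x * (y ^ (i + 1))⁻¹ = y * (y ^ i * x * (y ^ i)⁻¹) * y⁻¹ := by
        rw [pow_succ' y i]; group
      rw [this, ih]
      have h6 : y * c ^ i = c ^ i * y := ((hcc y).pow_right i).eq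
      calc y * (x * c ^ i) * y⁻¹ = (y * x * y⁻¹) * (y * c ^ i) * y⁻¹ := by group
        _ = (y * x * y⁻¹) * (c ^ i * y) * y⁻¹ := by rw [h6]
        _ = (x * c) * c ^ i := by rw [hyc]; group
        _ = x * c ^ (i + 1) := by rw [pow_succ' c i]; group
  have h7 := h5 p
  rw [h4, mul_one] at h7
  refine mem_Cx.2 ?_
  have : y ^ p * x * (y ^ p)⁻¹ * y ^ p = x * y ^ p := by rw [h7]
  rwa [inv_mul_cancel_right] at this

theorem comm_mem_P0 {y y' : G} (hy : y ∈ P) (hy' : y' ∈ P) : ⁅y, y'⁆ ∈ P0 N P := by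
  obtain ⟨x, hx, hxc, -, hxy⟩ := d.exists_x
  obtain ⟨c, hc, hyc⟩ := hxy y hy
  obtain ⟨c', hc', hyc'⟩ := hxy y' hy'
  have hcc : ∀ g : G, g * c = c * g := fun g => mem_center_iff.1 hc g
  have hcc' : ∀ g : G, g * c' = c' * g := fun g => mem_center_iff.1 hc' g
  refine d.cx_le_P0 hx hxc ⟨?_, ?_⟩
  · refine mem_Cx.2 ?_
    have hce : c * c' ∈ center G := mul_mem hc hc'
    have hcg : ∀ g : G, g * (c * c') = (c * c') * g := fun g => mem_center_iff.1 hce g
    set e := c * c' with he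
    set A := y * y' with hA
    set B := y' * y with hB
    have e1 : A * x = x * e * A := by
      calc A * x = y * (y' * x * y'⁻¹) * y' := by rw [hA]; group
        _ = y * (x * c') * y' := by rw [hyc']
        _ = (y * x * y⁻¹) * (y * c') * y' := by group
        _ = (x * c) * (c' * y) * y' := by rw [hyc, hcc' y]
        _ = x * e * A := by rw [he, hA]; group
    have e2 : B * x = x * e * B := by
      calc B * x = y' * (y * x * y⁻¹) * y := by rw [hB]; group
        _ = y' * (x * c) * y := by rw [hyc]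
        _ = (y' * x * y'⁻¹) * (y' * c) * y := by group
        _ = (x * c') * (c * y') * y := by rw [hyc', hcc y']
        _ = x * (c' * c) * (y' * y) := by group
        _ = x * e * B := by rw [hcc c']
    have e3 : B⁻¹ * (x * e) = x * B⁻¹ := by
      calc B⁻¹ * (x * e) = B⁻¹ * (x * e * B) * B⁻¹ := by group
        _ = B⁻¹ * (B * x) * B⁻¹ := by rw [e2]
        _ = x * B⁻¹ := by group
    have e4 : ⁅y, y'⁆ = A * B⁻¹ := by rw [commutatorElement_def, hA, hB]; group
    rw [e4]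
    have e5 : A * B⁻¹ * x * e = x * (A * B⁻¹) * e := by
      calc A * B⁻¹ * x * e = A * (B⁻¹ * (x * e)) := by group
        _ = A * (x * B⁻¹) := by rw [e3]
        _ = (A * x) * B⁻¹ := by group
        _ = x * (e * (A * B⁻¹)) := by rw [e1]; group
        _ = x * ((A * B⁻¹) * e) := by rw [hcg (A * B⁻¹)]
        _ = x * (A * B⁻¹) * e := by group
    exact mul_right_cancel e5
  · show ⁅y, y'⁆ ∈ P
    rw [commutatorElement_def]
    exact P.mul_mem (P.mul_mem (P.mul_mem hy hy') (P.inv_mem hy)) (P.inv_mem hy')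

end Dat

end Cfsg.Agent.H15Cls
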