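import Cfsg.Agent.H15Cls.Dat

/-!
# Class sizes `1, m, mn` with `(m,n)=1`: `C_P(N)` is not central (helper15)
-/

set_option autoImplicit false
set_option linter.style.haveILetI false
set_option linter.unusedSectionVars false

namespace Cfsg.Agent.H15Cls

open Subgroup Cfsg.Agent.H72
open scoped commutatorElement

universe u

variable {G : Type u} [Group G] [Finite G] {p : ℕ} [hp : Fact p.Prime] {a n k : ℕ} {N P : Subgroup G}

theorem commute_comm_of_pow {x w : G} {m c : ℕ} (hx : orderOf x = m) (hk : orderOf ⁅x, w⁆ = c)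
    (hmc : m.Coprime c) (hcom : Commute x ⁅x, w⁆) : Commute x w := by
  set k := ⁅x, w⁆ with hkdef
  have hxw : x * w * x⁻¹ = k * w := by rw [hkdef, commutatorElement_def]; group
  have hn : ∀ n : ℕ, x ^ n * w * (x ^ n)⁻¹ = k ^ n * w := by
    intro n
    induction n with
    | zero => simp
    | succ n ih =>
      have h1 : x ^ (n + 1) * w * (x ^ (n + 1))⁻¹ = x * (x ^ n * w * (x ^ n)⁻¹) * x⁻¹ := by
        rw [pow_succ' x n]; group
      have h2 : x * k ^ n = k ^ n * x := (hcom.pow_right n).eq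
      rw [h1, ih]
      calc x * (k ^ n * w) * x⁻¹ = (x * k ^ n) * w * x⁻¹ := by group
        _ = k ^ n * (x * w * x⁻¹) := by rw [h2]; group
        _ = k ^ (n + 1) * w := by rw [hxw, pow_succ]; group
  have h1 : k ^ m = 1 := by
    have := hn (orderOf x)
    rw [pow_orderOf_eq_one] at this
    rw [← hx]
    simpa using this.symm
  have h2 : k = 1 := by
    rw [← orderOf_eq_one_iff, hk]
    have h3 := orderOf_dvd_of_pow_eq_one h1
    rw [hk] at h3
    exact Nat.eq_one_of_dvd_coprimes hmc h3 dvd_rfl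
  rw [h2] at hxw
  have : x * w * x⁻¹ * x = w * x := by rw [hxw, one_mul]
  rwa [inv_mul_cancel_right] at this

namespace Dat

variable (d : Dat p a n k N P)

include d

theorem conj_mem_N {x : G} (hx : x ∈ N) (g : G) : g * x * g⁻¹ ∈ N := d.hNn.conj_mem x hx g

/-- A second-centre type element. -/
theorem exists_second {D : Subgroup G} (hD : D ≤ P) (hPD : ∀ x ∈ P, ∀ y ∈ D, x * y * x⁻¹ ∈ D)
    (hne : ∃ x ∈ D, x ∉ center G) :
    ∃ x ∈ D, x ∉ center G ∧ x ^ p ∈ center G ∧ ∀ y ∈ P, ∃ c ∈ center G, y * x * y⁻¹ = x * c := by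
  obtain ⟨x0, hx0, hx0c⟩ := hne
  let f := QuotientGroup.mk' (center G)
  have h1 : D.map f ≠ ⊥ := by
    intro h
    apply hx0c
    have h2 : f x0 ∈ D.map f := ⟨x0, hx0, rfl⟩
    rw [h, mem_bot] at h2
    exact (QuotientGroup.eq_one_iff x0).1 h2
  have h2 : IsPGroup p (P.map f) := d.hPp.map f
  have h3 : IsPGroup p (D.map f) := (d.hPp.to_le hD).map f
  obtain ⟨z, hz, hz1, hzc⟩ := H69.exists_fixed_of_isPGroup h2 h3 h1 (by
    rintro _ ⟨x, hx, rfl⟩ _ ⟨y, hy, rfl⟩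
    exact ⟨x * y * x⁻¹, hPD x hx y hy, by simp⟩)
  obtain ⟨j, hj⟩ := H69.orderOf_of_mem_isPGroup h3 hz
  have hj0 : j ≠ 0 := by
    rintro rfl
    rw [pow_zero, orderOf_eq_one_iff] at hj
    exact hz1 hj
  obtain ⟨j, rfl⟩ := Nat.exists_eq_succ_of_ne_zero hj0
  obtain ⟨x, hx, hxz⟩ := (D.map f).pow_mem hz (p ^ j)
  have e1 : f x = z ^ p ^ j := hxz
  refine ⟨x, hx, ?_, ?_, ?_⟩
  · intro hxc
    have h4 : f x = 1 := (QuotientGroup.eq_one_iff x).2 hxc
    rw [e1] at h4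
    have h5 := orderOf_dvd_of_pow_eq_one h4
    rw [hj] at h5
    have h6 := Nat.le_of_dvd (pow_pos hp.out.pos j) h5
    have h7 := Nat.pow_lt_pow_right hp.out.one_lt (Nat.lt_succ_self j)
    omega
  · rw [← QuotientGroup.eq_one_iff]
    show f (x ^ p) = 1
    rw [map_pow, e1, ← pow_mul, ← pow_succ, ← hj, pow_orderOf_eq_one]
  · intro y hy
    refine ⟨x⁻¹ * (y * x * y⁻¹), ?_, by group⟩
    rw [← QuotientGroup.eq_one_iff]
    show f (x⁻¹ * (y * x * y⁻¹)) = 1
    have h4 : Commute (f y) z := hzc (f y) ⟨y, hy, rfl⟩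
    have h5 : f y * z ^ p ^ j = z ^ p ^ j * f y := (h4.pow_right (p ^ j)).eq
    rw [map_mul, map_mul, map_mul, map_inv, map_inv, e1, h5]
    group

variable (hII : ∀ x ∈ P, N ≤ Cx x → x ∈ center G)

include hII

theorem relIndex_N_x {x : G} (hx : x ∈ P) (hxc : x ∉ center G) : (Cx x).relIndex N = n := by
  rcases d.hF2 x hxc with h | h
  · exact absurd (hII x hx (relIndex_eq_one.1 h)) hxc
  · exact h

theorem abelian_CNx {x : G} (hx : x ∈ P) (hxc : x ∉ center G) {z w : G} (hz : z ∈ N) (hw : w ∈ N)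
    (hxz : Commute x z) (hxw : Commute x w) : Commute z w := by
  obtain ⟨j, hj⟩ := d.ord_of_mem_P hx
  have hco : (orderOf x).Coprime (orderOf z) := by
    rw [hj]; exact Nat.Coprime.pow_left _ (d.cop_of_mem_N hz).symm
  have e : Cx (x * z) = Cx x ⊓ Cx z := H69.cent_mul_eq_inf hxz hco
  have hnc : x * z ∉ center G := by
    intro hc
    apply hxc
    rw [← Cx_index_eq_one_iff] at hc ⊢
    have : (Cx x).index ∣ (Cx (x * z)).index := Subgroup.index_dvd_of_le (by rw [e]; exact inf_le_left)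
    rw [hc] at this
    exact Nat.dvd_one.1 this
  have h1 := d.relIndex_N_x hII hx hxc
  have h2 : (Cx (x * z)).relIndex N = n := by
    rcases d.hF2 _ hnc with h | h
    · exfalso
      have h3 : N ≤ Cx x := (relIndex_eq_one.1 h).trans (by rw [e]; exact inf_le_left)
      exact hxc (hII x hx h3)
    · exact h
  have h3 := le_of_relIndex_eq (P := N) (A := Cx (x * z)) (B := Cx x)
    (inf_le_left.trans (by rw [e]; exact inf_le_left)) (by rw [h1, h2])
  have h4 := h3 ⟨commute_iff_mem.2 hxw, hw⟩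
  rw [e] at h4
  exact commute_iff_mem.1 h4.2

theorem exists_z0 : ∃ z ∈ N, z ∉ center G ∧ N ≤ Cx z := by
  obtain ⟨g, hg, hgN⟩ := d.hex1
  have hN := relIndex_eq_one.1 hgN
  obtain ⟨s, t, hst, hs, ht⟩ := Transfer.exists_pow_decomp p g (orderOf_pos g).ne'
  haveI := d.hNn
  have ht' : g ^ t ∈ N := (Transfer.mem_iff_coprime_of_card_of_index d.hNc d.index_N _).2 ht
  have hpow : ∀ i : ℕ, N ≤ Cx (g ^ i) := fun i => hN.trans (H69.cent_pow_le g i)
  by_cases htc : g ^ t ∈ center G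
  · exfalso
    have hsc : g ^ s ∉ center G := by
      intro h
      apply hg
      rw [hst]
      exact mul_mem h htc
    have hsp : IsPGroup p (zpowers (g ^ s)) := by
      obtain ⟨i, hi⟩ := hs
      exact IsPGroup.of_card (n := i) (by rw [Nat.card_zpowers, hi])
    obtain ⟨ν, hν, h1⟩ := d.exists_conj_le hsp
    have h2 := h1 _ (mem_zpowers _)
    have h3 : Commute (g ^ s) ν := commute_iff_mem.1 (hpow s hν)
    have e : ν * g ^ s * ν⁻¹ = g ^ s := by rw [← h3.eq]; group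
    rw [e] at h2
    exact hsc (hII _ h2 (hpow s))
  · exact ⟨_, ht', htc, hpow t⟩

theorem nonabelian_case (hna : ∃ v ∈ N, ¬ N ≤ Cx v) : False := by
  obtain ⟨z0, hz0, hz0c, hz0N⟩ := d.exists_z0 hII
  have hz0g : (Cx z0).relIndex P = p ^ a := by
    obtain ⟨ν, hν, h⟩ := d.exists_good hz0c
    have h3 : Commute z0 ν := commute_iff_mem.1 (hz0N hν)
    have e : ν * z0 * ν⁻¹ = z0 := by rw [← h3.eq]; group
    rwa [e] at h
  -- main step
  have key : ∀ v ∈ N, ¬ N ≤ Cx v → ∃ ν ∈ N, (∀ t ∈ P, Commute t z0 → Commute t (ν * v * ν⁻¹)) ∧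
      ∃ x ∈ P, x ∉ center G ∧ (∀ w ∈ N, N ≤ Cx w → Commute x w) ∧
        (∀ t ∈ P, Commute t z0 → Commute t x) := by
    intro v hv hvN
    have hvc : v ∉ center G := fun h => hvN fun y _ => center_le_Cx v |> fun _ => by
      rw [mem_Cx]; exact mem_center_iff.1 h y
    obtain ⟨ν, hν, hgood⟩ := d.exists_good hvc
    have hv' : ν * v * ν⁻¹ ∈ N := d.conj_mem_N hv ν
    have hv'N : ¬ N ≤ Cx (ν * v * ν⁻¹) := by
      intro h
      apply hvN
      have h3 : Commute (ν * v * ν⁻¹) ν := commute_iff_mem.1 (h hν)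
      have e : ν * v * ν⁻¹ = v := by
        have : ν⁻¹ * (ν * v * ν⁻¹ * ν) = ν⁻¹ * (ν * (ν * v * ν⁻¹)) := by rw [h3.eq]
        have h4 : v = ν * v * ν⁻¹ := by
          calc v = ν⁻¹ * (ν * v * ν⁻¹ * ν) := by group
            _ = ν⁻¹ * (ν * (ν * v * ν⁻¹)) := this
            _ = ν * v * ν⁻¹ := by group
        exact h4.symm
      rwa [e] at h
    have hv'c : ν * v * ν⁻¹ ∉ center G := fun h => hv'N fun y _ => by
      rw [mem_Cx]; exact mem_center_iff.1 h y
    obtain ⟨x, hxP, hxc, hxv⟩ := d.good_noncentral hgood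
    have h1 : (Cx (ν * v * ν⁻¹)).relIndex N = n := by
      rcases d.hF2 _ hv'c with h | h
      · exact absurd (relIndex_eq_one.1 h) hv'N
      · exact h
    have h2 := d.relIndex_N_x hII hxP hxc
    have h3 : Cx x ⊓ N ≤ Cx (ν * v * ν⁻¹) := by
      rintro w ⟨hw1, hw2⟩
      exact commute_iff_mem.2 (d.abelian_CNx hII hxP hxc hv' hw2 hxv (commute_iff_mem.1 hw1))
    have h4 := le_of_relIndex_eq h3 (by rw [h1, h2])
    have h5 : ∀ w ∈ N, N ≤ Cx w → Commute x w := by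
      intro w hw hwN
      exact commute_iff_mem.1 (h4 ⟨commute_iff_mem.2 (commute_iff_mem.1 (hwN hv')).symm, hw⟩)
    have hxz0 : Commute x z0 := h5 z0 hz0 hz0N
    have h6 : Cx x ⊓ P ≤ Cx z0 := by
      rintro t ⟨ht1, ht2⟩
      exact commute_iff_mem.2 (d.comm hxP hxc hz0 hxz0 ht2 (commute_iff_mem.1 ht1))
    have h7 := le_of_relIndex_eq h6 (by rw [hz0g, d.relIndex_x hxP hxc])
    have h8 : ∀ t ∈ P, Commute t z0 → Commute t x := fun t ht htz =>
      (commute_iff_mem.1 (h7 ⟨commute_iff_mem.2 htz.symm, ht⟩)).symm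
    refine ⟨ν, hν, fun t ht htz => ?_, x, hxP, hxc, h5, h8⟩
    exact (d.comm hxP hxc hv' hxv ht (h8 t ht htz).symm).symm
  set T : Subgroup G := Cx z0 ⊓ P with hT
  have hNT : N ≤ centralizer (T : Set G) := by
    have h1 : (centralizer (T : Set G)).subgroupOf N = ⊤ := by
      apply H69.eq_top_of_forall_conj_mem
      intro v
      by_cases hv : N ≤ Cx (v : G)
      · refine ⟨1, ?_⟩
        obtain ⟨v1, hv1, hv1N⟩ := hna
        obtain ⟨_, _, _, x, hxP, hxc, h5, h8⟩ := key v1 hv1 hv1N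
        rw [one_mul, inv_one, mul_one, mem_subgroupOf, mem_centralizer_iff]
        rintro t ⟨ht1, ht2⟩
        have htz : Commute t z0 := (commute_iff_mem.1 ht1).symm
        exact (d.comm hxP hxc v.2 (h5 v v.2 hv) ht2 (h8 t ht2 htz).symm).symm
      · obtain ⟨ν, hν, h, _⟩ := key v v.2 hv
        refine ⟨⟨ν, hν⟩, ?_⟩
        rw [mem_subgroupOf, mem_centralizer_iff]
        rintro t ⟨ht1, ht2⟩
        exact h t ht2 (commute_iff_mem.1 ht1).symm
    rwa [subgroupOf_eq_top] at h1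
  obtain ⟨x, hxP, hxc, hxz⟩ := d.good_noncentral hz0g
  apply hxc
  apply hII x hxP
  intro y hy
  exact commute_iff_mem.2 (mem_centralizer_iff.1 (hNT hy) x ⟨commute_iff_mem.2 hxz.symm, hxP⟩)

theorem abelian_case (hab : ∀ v ∈ N, N ≤ Cx v) : False := by
  have hgood : ∀ z ∈ N, z ∉ center G → (Cx z).relIndex P = p ^ a := by
    intro z hz hzc
    obtain ⟨ν, hν, h⟩ := d.exists_good hzc
    have h3 : Commute z ν := commute_iff_mem.1 (hab z hz hν)
    have e : ν * z * ν⁻¹ = z := by rw [← h3.eq]; group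
    rwa [e] at h
  have hcN : ∀ v ∈ N, ∀ w ∈ N, v * w = w * v := fun v hv w hw => (commute_iff_mem.1 (hab v hv hw)).eq
  obtain ⟨x0, hx0P, hx0c, -, hx0y⟩ := d.exists_second (D := P) le_rfl
    (fun x hx y hy => P.mul_mem (P.mul_mem hx hy) (P.inv_mem hx)) d.exists_noncentral
  have hrel0 := d.relIndex_N_x hII hx0P hx0c
  -- z1
  obtain ⟨z1, hz1, hz1c, hz1x⟩ : ∃ z1 ∈ N, z1 ∉ center G ∧ Commute x0 z1 := by
    by_contra hcon
    push Not at hcon
    obtain ⟨z, hz, hzc⟩ := d.exists_N_noncentral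
    obtain ⟨x, hxP, hxc, hxz⟩ := d.good_noncentral (hgood z hz hzc)
    have h1 : Cx x0 ⊓ N ≤ Cx x := by
      rintro w ⟨hw1, hw2⟩
      by_cases hwc : w ∈ center G
      · exact center_le_Cx x hwc
      · exact absurd (commute_iff_mem.1 hw1) (hcon w hw2 hwc)
    have h2 := le_of_relIndex_eq h1 (by rw [hrel0, d.relIndex_N_x hII hxP hxc])
    exact hcon z hz hzc (commute_iff_mem.1 (h2 ⟨commute_iff_mem.2 hxz, hz⟩))
  -- claim K
  obtain ⟨j, hj⟩ := d.ord_of_mem_P hx0P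
  have claimK : ∀ w ∈ N, Commute x0 ⁅x0, w⁆ → Commute x0 w := by
    intro w hw hc
    have hmem : ⁅x0, w⁆ ∈ N := by
      rw [commutatorElement_def]
      exact N.mul_mem (d.conj_mem_N hw x0) (N.inv_mem hw)
    refine commute_comm_of_pow hj rfl ?_ hc
    exact Nat.Coprime.pow_left _ (d.cop_of_mem_N hmem).symm
  obtain ⟨w, hw, hwx⟩ : ∃ w ∈ N, ¬ Commute x0 w := by
    by_contra hcon
    push Not at hcon
    exact hx0c (hII x0 hx0P fun y hy => commute_iff_mem.2 (hcon y hy))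
  set z' := ⁅x0, w⁆ with hz'
  have hz'N : z' ∈ N := by
    rw [hz', commutatorElement_def]
    exact N.mul_mem (d.conj_mem_N hw x0) (N.inv_mem hw)
  have hz'x : ¬ Commute x0 z' := fun h => hwx (claimK w hw h)
  -- the key separation
  have hsep : ∀ y ∈ P, Commute y (z1 * z') → Commute y z1 := by
    intro y hy hyz
    obtain ⟨c, hc, hyc⟩ := hx0y y hy
    have hcc : ∀ g : G, g * c = c * g := fun g => mem_center_iff.1 hc g
    set wy := y * w * y⁻¹ with hwy
    have hwyN : wy ∈ N := d.conj_mem_N hw y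
    -- y z' y⁻¹ = ⁅x0, wy⁆
    have e1 : y * z' * y⁻¹ = ⁅x0, wy⁆ := by
      have : y * z' * y⁻¹ = (y * x0 * y⁻¹) * wy * (y * x0 * y⁻¹)⁻¹ * wy⁻¹ := by
        rw [hz', hwy, commutatorElement_def]; group
      rw [this, hyc, commutatorElement_def, mul_inv_rev]
      calc x0 * c * wy * (c⁻¹ * x0⁻¹) * wy⁻¹ = x0 * (c * wy) * c⁻¹ * x0⁻¹ * wy⁻¹ := by group
        _ = x0 * (wy * c) * c⁻¹ * x0⁻¹ * wy⁻¹ := by rw [hcc]
        _ = x0 * wy * x0⁻¹ * wy⁻¹ := by group
    -- y z1 y⁻¹ commutes with x0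
    have e2 : Commute x0 (y * z1 * y⁻¹) := by
      have h1 : Commute (y * x0 * y⁻¹) (y * z1 * y⁻¹) := by
        have := hz1x.map (MulAut.conj y).toMonoidHom
        exact this
      rw [hyc] at h1
      have h2 : x0 * c * (y * z1 * y⁻¹) = y * z1 * y⁻¹ * (x0 * c) := h1
      have h3 : x0 * (y * z1 * y⁻¹) * c = y * z1 * y⁻¹ * x0 * c := by
        calc x0 * (y * z1 * y⁻¹) * c = x0 * ((y * z1 * y⁻¹) * c) := by group
          _ = x0 * (c * (y * z1 * y⁻¹)) := by rw [hcc]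
          _ = x0 * c * (y * z1 * y⁻¹) := by group
          _ = y * z1 * y⁻¹ * (x0 * c) := h2
          _ = y * z1 * y⁻¹ * x0 * c := by group
      exact mul_right_cancel h3
    have hz1y : y * z1 * y⁻¹ ∈ N := d.conj_mem_N hz1 y
    have e3 : (y * z1 * y⁻¹) * ⁅x0, wy⁆ = z1 * z' := by
      have : (y * z1 * y⁻¹) * (y * z' * y⁻¹) = y * (z1 * z') * y⁻¹ := by group
      rw [← e1, this, hyz.eq]; group
    have hcomN : ⁅x0, wy⁆ ∈ N := by
      rw [commutatorElement_def]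
      exact N.mul_mem (d.conj_mem_N hwyN x0) (N.inv_mem hwyN)
    -- ⁅x0, w * wy⁻¹⁆ = z' * ⁅x0, wy⁆⁻¹
    have e4 : ⁅x0, w * wy⁻¹⁆ = z' * ⁅x0, wy⁆⁻¹ := by
      have hA : x0 * w * x0⁻¹ ∈ N := d.conj_mem_N hw x0
      have hB : x0 * wy⁻¹ * x0⁻¹ ∈ N := d.conj_mem_N (N.inv_mem hwyN) x0
      have hwi := N.inv_mem hw
      have e5 : ⁅x0, w * wy⁻¹⁆ = (x0 * w * x0⁻¹) * ((x0 * wy⁻¹ * x0⁻¹) * wy) * w⁻¹ := by
        rw [commutatorElement_def]; group
      have e6 : z' * ⁅x0, wy⁆⁻¹ = (x0 * w * x0⁻¹) * w⁻¹ * (wy * (x0 * wy⁻¹ * x0⁻¹)) := by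
        rw [hz', commutatorElement_def, commutatorElement_def]; group
      rw [e5, e6, hcN wy hwyN _ hB, mul_assoc, mul_assoc,
        hcN ((x0 * wy⁻¹ * x0⁻¹) * wy) (N.mul_mem hB hwyN) w⁻¹ hwi]
      simp only [mul_assoc]
    have e7 : z1⁻¹ * (y * z1 * y⁻¹) = z' * ⁅x0, wy⁆⁻¹ := by
      have h8 : y * z1 * y⁻¹ = z1 * z' * ⁅x0, wy⁆⁻¹ := by rw [← e3]; group
      rw [h8]; group
    have h9 : Commute x0 ⁅x0, w * wy⁻¹⁆ := by
      rw [e4, ← e7]
      exact (hz1x.inv_right).mul_right e2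
    have h10 : Commute x0 (w * wy⁻¹) := claimK _ (N.mul_mem hw (N.inv_mem hwyN)) h9
    have h11 : ⁅x0, w * wy⁻¹⁆ = 1 := commutatorElement_eq_one_iff_commute.2 h10
    rw [← e4, h11] at e7
    have h12 : y * z1 * y⁻¹ = z1 := by
      calc y * z1 * y⁻¹ = z1 * (z1⁻¹ * (y * z1 * y⁻¹)) := by group
        _ = z1 := by rw [e7, mul_one]
    have : y * z1 * y⁻¹ * y = z1 * y := by rw [h12]
    rwa [inv_mul_cancel_right] at this
  have hprodN : z1 * z' ∈ N := N.mul_mem hz1 hz'N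
  have hprodc : z1 * z' ∉ center G := by
    intro hc
    apply hz1c
    rw [mem_center_iff]
    have hP1 : P ≤ Cx z1 := fun y hy => commute_iff_mem.2 (hsep y hy (mem_center_iff.1 hc y)).symm
    have htop : Cx z1 = ⊤ := by
      rw [eq_top_iff, ← d.hsup]
      exact sup_le (hab z1 hz1) hP1
    intro g
    have : g ∈ Cx z1 := by rw [htop]; exact mem_top g
    exact mem_Cx.1 this
  have h1 : Cx (z1 * z') ⊓ P ≤ Cx z1 := by
    rintro y ⟨hy1, hy2⟩
    exact commute_iff_mem.2 (hsep y hy2 (commute_iff_mem.1 hy1).symm).symm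
  have h2 := le_of_relIndex_eq h1 (by rw [hgood _ hprodN hprodc, hgood _ hz1 hz1c])
  have h3 : Commute (z1 * z') x0 := commute_iff_mem.1 (h2 ⟨commute_iff_mem.2 hz1x.symm, hx0P⟩)
  apply hz'x
  have h4 : Commute x0 (z1⁻¹ * (z1 * z')) := (hz1x.inv_right).mul_right h3.symm
  rwa [inv_mul_cancel_left] at h4

end Dat

end Cfsg.Agent.H15Cls
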