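import Cfsg.Agent.H15Cls.Basic

/-!
# Class sizes `1, m, mn` with `(m,n)=1`: the set-up after the normal `p`-complement (helper15)
-/

set_option autoImplicit false
set_option linter.style.haveILetI false
set_option linter.unusedSectionVars false

namespace Cfsg.Agent.H15Cls

open Subgroup Cfsg.Agent.H72

universe u

section Retr

variable {G : Type u} [Group G] {N P : Subgroup G}

theorem exists_retr (hNn : N.Normal) (hsup : N ⊔ P = ⊤) (hinf : N ⊓ P = ⊥) :
    ∃ r : G →* G, (∀ g, r g ∈ P) ∧ (∀ x ∈ P, r x = x) ∧ r.ker = N := by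
  let f : P →* G ⧸ N := (QuotientGroup.mk' N).comp P.subtype
  have hf1 : Function.Injective f := by
    rw [injective_iff_map_eq_one]
    intro x hx
    have h1 : (x : G) ∈ N := (QuotientGroup.eq_one_iff _).1 hx
    have h2 : (x : G) ∈ N ⊓ P := ⟨h1, x.2⟩
    rw [hinf, mem_bot] at h2
    exact Subtype.ext h2
  have hf2 : Function.Surjective f := by
    intro g
    obtain ⟨g, rfl⟩ := QuotientGroup.mk_surjective g
    have h1 : g ∈ N ⊔ P := by rw [hsup]; exact mem_top g
    obtain ⟨ν, hν, x, hx, rfl⟩ := mem_sup_of_normal_left.1 h1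
    refine ⟨⟨x, hx⟩, ?_⟩
    show ((x : G) : G ⧸ N) = ((ν * x : G) : G ⧸ N)
    rw [QuotientGroup.mk_mul, (QuotientGroup.eq_one_iff ν).2 hν, one_mul]
  let e : P ≃* G ⧸ N := MulEquiv.ofBijective f ⟨hf1, hf2⟩
  refine ⟨P.subtype.comp (e.symm.toMonoidHom.comp (QuotientGroup.mk' N)), fun g => ?_, fun x hx => ?_, ?_⟩
  · exact (e.symm (QuotientGroup.mk' N g)).2
  · have h1 : e ⟨x, hx⟩ = QuotientGroup.mk' N x := rfl
    show ((e.symm (QuotientGroup.mk' N x) : P) : G) = x
    rw [← h1, MulEquiv.symm_apply_apply]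
  · ext g
    rw [MonoidHom.mem_ker]
    show ((e.symm (QuotientGroup.mk' N g) : P) : G) = 1 ↔ _
    rw [OneMemClass.coe_eq_one, EmbeddingLike.map_eq_one_iff]
    exact QuotientGroup.eq_one_iff g

variable {r : G →* G} (h1 : ∀ g, r g ∈ P) (h2 : ∀ x ∈ P, r x = x) (h3 : r.ker = N)

include h1 h2

theorem range_retr : r.range = P := by
  apply le_antisymm
  · rintro _ ⟨g, rfl⟩; exact h1 g
  · intro x hx; exact ⟨x, h2 x hx⟩

theorem map_retr_of_le {D : Subgroup G} (hD : D ≤ P) : D.map r = D := by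
  apply le_antisymm
  · rintro _ ⟨d, hd, rfl⟩; rw [h2 d (hD hd)]; exact hd
  · intro d hd; exact ⟨d, hd, h2 d (hD hd)⟩

include h3

theorem index_sup (C : Subgroup G) : (C ⊔ N).index = (C.map r).relIndex P := by
  rw [← h3, ← comap_map_eq, index_comap, range_retr h1 h2]

end Retr

/-- The set-up. -/
structure Dat {G : Type u} [Group G] (p a n k : ℕ) (N P : Subgroup G) : Prop where
  hn : 1 < n
  hpn : p.Coprime n
  hNn : N.Normal
  hNc : (Nat.card N).Coprime p
  hPk : Nat.card P = p ^ k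
  hsup : N ⊔ P = ⊤
  hinf : N ⊓ P = ⊥
  same : SameP G p a
  hF1 : ∀ g ∉ center G, (Cx g ⊔ N).index = p ^ a
  hF2 : ∀ g ∉ center G, (Cx g).relIndex N = 1 ∨ (Cx g).relIndex N = n
  hex1 : ∃ g ∉ center G, (Cx g).relIndex N = 1
  hexn : ∃ g ∉ center G, (Cx g).relIndex N = n

variable {G : Type u} [Group G] [Finite G] {p : ℕ} [hp : Fact p.Prime] {a n k : ℕ} {N P : Subgroup G}

theorem relIndex_mul_card_inf (A P : Subgroup G) :
    A.relIndex P * Nat.card (A ⊓ P : Subgroup G) = Nat.card P := by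
  have e : Nat.card (A ⊓ P : Subgroup G) = Nat.card (A.subgroupOf P) := by
    rw [← inf_subgroupOf_right A P]
    exact Nat.card_congr (Subgroup.subgroupOfEquivOfLe (inf_le_right : A ⊓ P ≤ P)).toEquiv.symm
  rw [e, mul_comm]
  exact Subgroup.card_mul_index _

theorem le_of_relIndex_eq {A B : Subgroup G} (hAB : A ⊓ P ≤ B) (he : A.relIndex P = B.relIndex P) :
    B ⊓ P ≤ A := by
  have e1 : A.relIndex P * Nat.card (A ⊓ P : Subgroup G) = Nat.card P := by
    exact relIndex_mul_card_inf _ _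
  have e2 : B.relIndex P * Nat.card (B ⊓ P : Subgroup G) = Nat.card P := by
    exact relIndex_mul_card_inf _ _
  have hne : B.relIndex P ≠ 0 := by
    intro h0
    rw [h0, zero_mul] at e2
    exact Nat.card_pos.ne' e2.symm
  have e3 : Nat.card (A ⊓ P : Subgroup G) = Nat.card (B ⊓ P : Subgroup G) := by
    rw [← he] at e2 hne
    exact Nat.eq_of_mul_eq_mul_left (Nat.pos_of_ne_zero hne) (e1.trans e2.symm)
  have e4 : A ⊓ P = B ⊓ P :=
    Subgroup.eq_of_le_of_card_ge (le_inf hAB inf_le_right) e3.ge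
  rw [← e4]
  exact inf_le_left

namespace Dat

variable (d : Dat p a n k N P)

include d

theorem hPp : IsPGroup p P := IsPGroup.of_card d.hPk

theorem ord_of_mem_P {x : G} (hx : x ∈ P) : ∃ j, orderOf x = p ^ j :=
  H69.orderOf_of_mem_isPGroup d.hPp hx

theorem cop_of_mem_N {x : G} (hx : x ∈ N) : (orderOf x).Coprime p :=
  Transfer.coprime_orderOf_of_coprime_card d.hNc hx

theorem index_N : N.index = p ^ k := by
  obtain ⟨r, h1, h2, h3⟩ := exists_retr d.hNn d.hsup d.hinf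
  have := index_sup h1 h2 h3 ⊥
  rw [bot_sup_eq, Subgroup.map_bot, relIndex_bot_left, d.hPk] at this
  exact this

/-- L1 for the set-up -/
theorem comm {x : G} (hx : x ∈ P) (hxc : x ∉ center G) {z : G} (hz : z ∈ N) (hxz : Commute x z)
    {t : G} (ht : t ∈ P) (hxt : Commute x t) : Commute z t := by
  obtain ⟨j, hj⟩ := d.ord_of_mem_P hx
  obtain ⟨i, hi⟩ := d.ord_of_mem_P ht
  exact commute_of_cx d.same hxc hj hxz (d.cop_of_mem_N hz) hxt hi

theorem relIndex_x {x : G} (hx : x ∈ P) (hxc : x ∉ center G) : (Cx x).relIndex P = p ^ a := by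
  obtain ⟨r, h1, h2, h3⟩ := exists_retr d.hNn d.hsup d.hinf
  have e := index_sup h1 h2 h3 (Cx x)
  rw [d.hF1 x hxc] at e
  have e2 : (Cx x).map r = Cx x ⊓ P := by
    apply le_antisymm
    · rintro _ ⟨g, hg, rfl⟩
      have hg' : Commute x g := commute_iff_mem.1 hg
      have := hg'.map r
      rw [h2 x hx] at this
      exact ⟨commute_iff_mem.2 this, h1 g⟩
    · rintro g ⟨hg1, hg2⟩
      exact ⟨g, hg1, h2 g hg2⟩
  rw [e, e2, inf_relIndex_right]

theorem dvd_relIndex {g : G} (hg : g ∉ center G) : p ^ a ∣ (Cx g).relIndex P := by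
  obtain ⟨r, h1, h2, h3⟩ := exists_retr d.hNn d.hsup d.hinf
  have e := index_sup h1 h2 h3 (Cx g)
  rw [d.hF1 g hg] at e
  rw [e, ← inf_relIndex_right (Cx g) P]
  refine relIndex_dvd_of_le_left P ?_
  rintro x ⟨hx1, hx2⟩
  exact ⟨x, hx1, h2 x hx2⟩

theorem mem_center_of_comm {x : G} (hx : x ∈ P) (h : ∀ y ∈ P, Commute x y) : x ∈ center G := by
  by_contra hxc
  have e := d.relIndex_x hx hxc
  have : (Cx x).relIndex P = 1 := relIndex_eq_one.2 fun y hy => commute_iff_mem.2 (h y hy)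
  rw [this] at e
  have h1 : 1 < p ^ a := Nat.one_lt_pow (by have := d.same.1; omega) hp.out.one_lt
  omega

theorem not_central : ∃ g : G, g ∉ center G := by
  obtain ⟨g, hg, _⟩ := d.hex1
  exact ⟨g, hg⟩

/-- `P` as a Sylow subgroup -/
theorem exists_sylow : ∃ Q : Sylow p G, (Q : Subgroup G) = P := by
  have h : ¬ p ∣ P.index := by
    have e : P.index = Nat.card N := by
      have e1 := P.card_mul_index
      have e2 := N.card_mul_index
      rw [d.index_N] at e2
      rw [d.hPk, ← e2, mul_comm (Nat.card N)] at e1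
      exact Nat.eq_of_mul_eq_mul_left (pow_pos hp.out.pos k) e1
    rw [e]
    exact (Nat.Prime.coprime_iff_not_dvd hp.out).1 d.hNc.symm
  exact ⟨d.hPp.toSylow h, rfl⟩

theorem exists_noncentral : ∃ x ∈ P, x ∉ center G := by
  obtain ⟨Q, hQ⟩ := d.exists_sylow
  rw [← hQ]
  exact exists_noncentral_sylow d.same d.not_central Q

/-- a `p`-subgroup is `N`-conjugate into `P` -/
theorem exists_conj_le {T : Subgroup G} (hT : IsPGroup p T) : ∃ ν ∈ N, ∀ t ∈ T, ν * t * ν⁻¹ ∈ P := by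
  obtain ⟨Q, hQ⟩ := d.exists_sylow
  obtain ⟨R, hR⟩ := hT.exists_le_sylow
  obtain ⟨g, hg⟩ := MulAction.exists_smul_eq G R Q
  have h1 : ∀ t ∈ T, g * t * g⁻¹ ∈ P := by
    intro t ht
    rw [← hQ, ← hg, Sylow.coe_subgroup_smul]
    exact ⟨t, hR ht, rfl⟩
  have h2 : g ∈ P ⊔ N := by rw [sup_comm, d.hsup]; exact mem_top g
  haveI := d.hNn
  obtain ⟨x, hx, ν, hν, rfl⟩ := mem_sup_of_normal_right.1 h2
  refine ⟨ν, hν, fun t ht => ?_⟩
  have h3 := P.mul_mem (P.mul_mem (P.inv_mem hx) (h1 t ht)) hx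
  have e : x⁻¹ * (x * ν * t * (x * ν)⁻¹) * x = ν * t * ν⁻¹ := by group
  rwa [e] at h3

/-- noncentral elements of `N` have `P`-good `N`-conjugates. -/
theorem exists_good {z : G} (hz : z ∉ center G) :
    ∃ ν ∈ N, (Cx (ν * z * ν⁻¹)).relIndex P = p ^ a := by
  obtain ⟨T⟩ : Nonempty (Sylow p (Cx z)) := inferInstance
  set T' : Subgroup G := (T : Subgroup (Cx z)).map (Cx z).subtype with hT'
  have hT'p : IsPGroup p T' := T.2.map _
  obtain ⟨ν, hν, h1⟩ := d.exists_conj_le hT'p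
  refine ⟨ν, hν, ?_⟩
  have hz' : ν * z * ν⁻¹ ∉ center G := by
    intro hc
    apply hz
    rw [← Cx_index_eq_one_iff] at hc ⊢
    rwa [← H69.cent_conj_index ν z]
  have h2 := d.dvd_relIndex hz'
  have hTcard : Nat.card T' = p ^ (Nat.card (Cx z)).factorization p := by
    rw [hT', Nat.card_congr ((T : Subgroup (Cx z)).equivMapOfInjective _ (Cx z).subtype_injective).toEquiv.symm]
    exact T.card_eq_multiplicity
  have hcz := H69.index_factorization_add (Cx z) p
  rw [d.same.2 z hz] at hcz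
  have hGk : (Nat.card G).factorization p = k := by
    rw [← N.card_mul_index, d.index_N, Nat.factorization_mul Nat.card_pos.ne' (pow_pos hp.out.pos k).ne',
      Finsupp.add_apply, hp.out.factorization_pow, Finsupp.single_eq_same,
      Nat.factorization_eq_zero_of_not_dvd ((Nat.Prime.coprime_iff_not_dvd hp.out).1 d.hNc.symm), zero_add]
  have hle : T'.map (MulAut.conj ν).toMonoidHom ≤ Cx (ν * z * ν⁻¹) ⊓ P := by
    rintro _ ⟨t, ht, rfl⟩
    refine ⟨?_, h1 t ht⟩
    have h3 : t ∈ Cx z := map_subtype_le _ ht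
    have h4 := (commute_iff_mem.1 h3).map (MulAut.conj ν).toMonoidHom
    exact commute_iff_mem.2 h4
  have hcard : Nat.card (T'.map (MulAut.conj ν).toMonoidHom) = Nat.card T' :=
    Nat.card_congr (T'.equivMapOfInjective _ (MulAut.conj ν).injective).toEquiv.symm
  have e1 : (Cx (ν * z * ν⁻¹)).relIndex P * Nat.card (Cx (ν * z * ν⁻¹) ⊓ P : Subgroup G) = Nat.card P := by
    exact relIndex_mul_card_inf _ _
  have h5 : p ^ (k - a) ≤ Nat.card (Cx (ν * z * ν⁻¹) ⊓ P : Subgroup G) := by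
    have := Nat.le_of_dvd Nat.card_pos (Subgroup.card_dvd_of_le hle)
    rw [hcard, hTcard] at this
    have e6 : (Nat.card (Cx z)).factorization p = k - a := by omega
    rwa [e6] at this
  apply le_antisymm _ (Nat.le_of_dvd (by
    apply Nat.pos_of_ne_zero
    intro h0
    rw [h0, zero_mul] at e1
    exact Nat.card_pos.ne' e1.symm) h2)
  have h6 : (Cx (ν * z * ν⁻¹)).relIndex P * p ^ (k - a) ≤ p ^ a * p ^ (k - a) := by
    calc _ ≤ (Cx (ν * z * ν⁻¹)).relIndex P * Nat.card (Cx (ν * z * ν⁻¹) ⊓ P : Subgroup G) :=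
          Nat.mul_le_mul_left _ h5
      _ = p ^ k := by rw [e1, d.hPk]
      _ = p ^ a * p ^ (k - a) := by rw [← pow_add]; congr 1; omega
  exact Nat.le_of_mul_le_mul_right h6 (pow_pos hp.out.pos _)

theorem good_noncentral {z : G} (hz : (Cx z).relIndex P = p ^ a) : ∃ x ∈ P, x ∉ center G ∧ Commute x z := by
  by_contra hcon
  push Not at hcon
  obtain ⟨x, hxP, hx⟩ := d.exists_noncentral
  have h1 : Cx z ⊓ P ≤ center G := by
    rintro y ⟨hy1, hy2⟩
    by_contra hyc
    exact hcon y hy2 hyc (commute_iff_mem.1 hy1).symm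
  have h2 := le_of_relIndex_eq (P := P) (A := Cx z) (B := Cx x) (h1.trans (center_le_Cx x))
    (by rw [hz, d.relIndex_x hxP hx])
  exact hx (h1 ⟨h2 ⟨commute_iff_mem.2 (Commute.refl x), hxP⟩, hxP⟩)

/-- `N` is not central. -/
theorem exists_N_noncentral : ∃ z ∈ N, z ∉ center G := by
  by_contra hcon
  push Not at hcon
  obtain ⟨g, _, hg⟩ := d.hexn
  have : (Cx g).relIndex N = 1 := relIndex_eq_one.2 fun y hy => center_le_Cx g (hcon y hy)
  have := d.hn
  omega

end Dat

end Cfsg.Agent.H15Cls
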