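import Cfsg.Agent.H15Cls.CaseI

/-!
# Class sizes `1, m, mn` with `(m,n)=1`: the main case, conclusions (helper15)
-/

set_option autoImplicit false
set_option linter.style.haveILetI false
set_option linter.unusedSectionVars false

namespace Cfsg.Agent.H15Cls

open Subgroup Cfsg.Agent.H72
open scoped commutatorElement

universe u

variable {G : Type u} [Group G] [Finite G] {p : ℕ} [hp : Fact p.Prime] {a n k : ℕ} {N P : Subgroup G}

namespace Dat

variable (d : Dat p a n k N P)

include d

/-- the action of `P` on `N` -/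
theorem exists_action : ∃ φ : P →* MulAut N, ∀ (x : P) (z : N), ((φ x z : N) : G) = x * z * (x : G)⁻¹ := by
  haveI := d.hNn
  exact ⟨(MulAut.conjNormal (H := N)).comp P.subtype, fun x z => rfl⟩

theorem a_eq_one : a = 1 := by
  obtain ⟨φ, hφ⟩ := d.exists_action
  have hker : ∀ x : P, φ x = 1 ↔ (x : G) ∈ P0 N P := by
    intro x
    rw [mem_P0]
    constructor
    · intro h
      refine ⟨x.2, fun z hz => ?_⟩
      have h1 := hφ x ⟨z, hz⟩
      rw [h] at h1
      have h2 : z = x * z * (x : G)⁻¹ := h1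
      refine mem_Cx.2 ?_
      have h3 : (x : G) * z * (x : G)⁻¹ * x = z * x := by rw [← h2]
      rw [inv_mul_cancel_right] at h3
      exact h3.symm
    · rintro ⟨-, h⟩
      ext z
      rw [hφ]
      have h1 := mem_Cx.1 (h z.2)
      show (x : G) * z * (x : G)⁻¹ = z
      rw [← h1]; group
  have hcard : Nat.card φ.range = p ^ a := by
    have h1 : φ.ker = (P0 N P).subgroupOf P := by
      ext x; rw [MonoidHom.mem_ker, hker, mem_subgroupOf]
    rw [← Subgroup.index_ker, h1]
    exact d.relIndex_P0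
  have hexp : ∀ γ : φ.range, γ ^ p = 1 := by
    rintro ⟨_, x, rfl⟩
    apply Subtype.ext
    show (φ x) ^ p = 1
    rw [← map_pow, hker]
    exact d.pow_mem_P0 x.2
  have hcomm : IsMulCommutative φ.range := by
    refine ⟨⟨?_⟩⟩
    rintro ⟨_, x, rfl⟩ ⟨_, y, rfl⟩
    apply Subtype.ext
    show φ x * φ y = φ y * φ x
    have h1 : φ ⁅x, y⁆ = 1 := by
      rw [hker]
      exact d.comm_mem_P0 x.2 y.2
    rw [map_commutatorElement, commutatorElement_eq_one_iff_mul_comm] at h1
    exact h1
  have hcyc : IsCyclic φ.range := by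
    by_contra hnc
    have h1 := Cop.gen_fix φ.range hcomm hnc (by
      rw [hcard]
      exact Nat.Coprime.pow_left _ d.hNc.symm)
    obtain ⟨z, hz, hzc⟩ := d.exists_N_noncentral
    have h2 : (⨆ α ∈ {α : MulAut N | α ∈ φ.range ∧ α ≠ 1}, Cop.fixSub α) ≤ (center G).subgroupOf N := by
      refine iSup₂_le ?_
      rintro _ ⟨⟨x, rfl⟩, hx1⟩ w hw
      have hw' : φ x w = w := hw
      have hx0 : (x : G) ∉ P0 N P := fun h => hx1 ((hker x).2 h)
      rw [mem_subgroupOf]
      refine d.mem_center_of_comm_t x.2 hx0 w.2 ?_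
      have h3 := hφ x w
      rw [hw'] at h3
      show (x : G) * w = w * x
      conv_rhs => rw [h3]
      group
    rw [h1] at h2
    exact hzc (mem_subgroupOf.1 (h2 (mem_top (⟨z, hz⟩ : N))))
  have h3 : Nat.card φ.range ∣ p := by
    rw [← IsCyclic.exponent_eq_card]
    exact Monoid.exponent_dvd_of_forall_pow_eq_one hexp
  rw [hcard] at h3
  have h4 : a ≤ 1 := (Nat.pow_dvd_pow_iff_le_right hp.out.one_lt).1 (by rwa [pow_one])
  have := d.same.1
  omega

theorem dvd_n_sub_one : p ∣ n - 1 := by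
  obtain ⟨φ, hφ⟩ := d.exists_action
  letI : MulAction P N := MulAction.compHom N φ
  have hsm : ∀ (x : P) (z : N), ((x • z : N) : G) = x * z * (x : G)⁻¹ := fun x z => hφ x z
  have h1 := d.hPp.card_modEq_card_fixedPoints N
  have h2 : Nat.card (MulAction.fixedPoints P N) = Nat.card (center G ⊓ N : Subgroup G) := by
    refine Nat.card_congr ⟨fun z => ⟨((z : N) : G), ?_, (z : N).2⟩, fun z => ⟨⟨(z : G), z.2.2⟩, ?_⟩,
      fun z => rfl, fun z => rfl⟩
    · obtain ⟨t, ht, ht0⟩ := d.exists_t
      refine d.mem_center_of_comm_t ht ht0 (z : N).2 ?_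
      have h3 := hsm ⟨t, ht⟩ z
      rw [z.2 ⟨t, ht⟩] at h3
      show t * ((z : N) : G) = z * t
      conv_rhs => rw [h3]
      group
    · intro x
      apply Subtype.ext
      rw [hsm]
      show (x : G) * z * (x : G)⁻¹ = z
      rw [mem_center_iff.1 z.2.1 x]; group
  have h3 := relIndex_mul_card_inf (center G) N
  rw [d.center_relIndex] at h3
  rw [h2, ← h3] at h1
  have h4 : p ∣ n * Nat.card (center G ⊓ N : Subgroup G) - Nat.card (center G ⊓ N : Subgroup G) :=
    (Nat.modEq_iff_dvd' (Nat.le_mul_of_pos_left _ (by have := d.hn; omega))).1 h1.symm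
  have h5 : n * Nat.card (center G ⊓ N : Subgroup G) - Nat.card (center G ⊓ N : Subgroup G)
      = (n - 1) * Nat.card (center G ⊓ N : Subgroup G) := by
    rw [Nat.sub_mul, one_mul]
  rw [h5] at h4
  have h6 : p.Coprime (Nat.card (center G ⊓ N : Subgroup G)) :=
    (d.hNc.symm).coprime_dvd_right (Subgroup.card_dvd_of_le inf_le_right)
  exact h6.dvd_of_dvd_mul_right h4

theorem N_le_M : N ≤ centralizer (N : Set G) := by
  intro z hz
  rw [mem_centralizer_iff]
  intro y hy
  exact mem_Cx.1 (d.N_comm hz hy)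

theorem M_comm : IsMulCommutative (centralizer (N : Set G)) := by
  obtain ⟨r, h1, h2, h3⟩ := exists_retr d.hNn d.hsup d.hinf
  have hdec : ∀ g ∈ centralizer (N : Set G), ∃ z ∈ N, ∃ x ∈ P0 N P, g = z * x := by
    intro g hg
    have h4 : g * (r g)⁻¹ ∈ N := by
      rw [← h3, MonoidHom.mem_ker, map_mul, map_inv, h2 _ (h1 g), mul_inv_cancel]
    refine ⟨g * (r g)⁻¹, h4, r g, ⟨h1 g, ?_⟩, by group⟩
    have h5 : r g = (g * (r g)⁻¹)⁻¹ * g := by group
    show r g ∈ centralizer (N : Set G)
    rw [h5]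
    exact mul_mem (inv_mem (d.N_le_M h4)) hg
  refine ⟨⟨?_⟩⟩
  rintro ⟨g, hg⟩ ⟨g', hg'⟩
  apply Subtype.ext
  show g * g' = g' * g
  obtain ⟨z, hz, x, hx, rfl⟩ := hdec g hg
  obtain ⟨z', hz', x', hx', rfl⟩ := hdec g' hg'
  have c1 : Commute z z' := commute_iff_mem.1 (d.N_comm hz hz')
  have c2 : Commute x x' := d.P0_comm hx hx'
  have c3 : Commute x z' := commute_iff_mem.1 ((mem_P0.1 hx).2 hz')
  have c4 : Commute x' z := commute_iff_mem.1 ((mem_P0.1 hx').2 hz)
  exact ((c1.mul_right c4.symm).mul_left (c3.mul_right c2))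

theorem M_index : (centralizer (N : Set G)).index = p ^ a := by
  obtain ⟨r, h1, h2, h3⟩ := exists_retr d.hNn d.hsup d.hinf
  have e := index_sup h1 h2 h3 (centralizer (N : Set G))
  rw [sup_of_le_left d.N_le_M] at e
  have e2 : (centralizer (N : Set G)).map r = P0 N P := by
    apply le_antisymm
    · rintro _ ⟨g, hg, rfl⟩
      have h4 : g * (r g)⁻¹ ∈ N := by
        rw [← h3, MonoidHom.mem_ker, map_mul, map_inv, h2 _ (h1 g), mul_inv_cancel]
      refine ⟨h1 g, ?_⟩
      have h5 : r g = (g * (r g)⁻¹)⁻¹ * g := by group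
      show r g ∈ centralizer (N : Set G)
      rw [h5]
      exact mul_mem (inv_mem (d.N_le_M h4)) hg
    · rintro x hx
      exact ⟨x, hx.2, h2 x hx.1⟩
  rw [e, e2, d.relIndex_P0]

theorem M_eq (x : G) : x ∈ centralizer (N : Set G) ↔ (Cx x).index = 1 ∨ (Cx x).index = p ^ a := by
  have h0 : x ∈ centralizer (N : Set G) ↔ N ≤ Cx x := by
    rw [mem_centralizer_iff]
    exact ⟨fun h y hy => mem_Cx.2 (h y hy), fun h y hy => mem_Cx.1 (h hy)⟩
  rw [h0]
  by_cases hx : x ∈ center G
  · refine ⟨fun _ => Or.inl (Cx_index_eq_one_iff.2 hx), fun _ y _ => ?_⟩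
    exact commute_iff_mem.2 (mem_center_iff.1 hx y).symm
  · have h1 := d.hF1 x hx
    constructor
    · intro h
      rw [sup_of_le_left h] at h1
      exact Or.inr h1
    · rintro (h | h)
      · exact absurd (Cx_index_eq_one_iff.1 h) hx
      · have h2 : (Cx x).relIndex (Cx x ⊔ N) * (Cx x ⊔ N).index = (Cx x).index :=
          relIndex_mul_index le_sup_left
        rw [h1, h] at h2
        have h3 : (Cx x).relIndex (Cx x ⊔ N) = 1 :=
          Nat.eq_of_mul_eq_mul_right (pow_pos hp.out.pos a) (by rw [h2, one_mul])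
        exact le_sup_right.trans (relIndex_eq_one.1 h3)

theorem card_commutator : Nat.card (commutator P) = p := by
  have ha := d.a_eq_one
  haveI : Finite P := inferInstance
  apply H76.card_commutator_of_index_center
  obtain ⟨t, ht, ht0⟩ := d.exists_t
  have htc := d.not_center_t ht0 ht
  obtain ⟨x, hxP, hxN, hxc⟩ := d.caseI
  have hx0 : x ∈ P0 N P := mem_P0.2 ⟨hxP, hxN⟩
  have e1 : center P = (P0 N P ⊓ Cx t).subgroupOf P := by
    ext y
    rw [mem_subgroupOf, mem_center_iff]
    constructor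
    · intro h
      have hy : (y : G) ∈ center G := d.mem_center_of_comm y.2 fun w hw =>
        (congrArg Subtype.val (h ⟨w, hw⟩)).symm
      refine ⟨mem_P0.2 ⟨y.2, fun z _ => commute_iff_mem.2 (mem_center_iff.1 hy z).symm⟩,
        center_le_Cx t hy⟩
    · rintro ⟨hy1, hy2⟩ w
      have hyc : (y : G) ∈ center G := by
        by_contra hyc
        exact ht0 (d.cx_le_P0 hy1 hyc ⟨commute_iff_mem.2 (commute_iff_mem.1 hy2).symm, ht⟩)
      exact Subtype.ext (mem_center_iff.1 hyc w)
  have e2 : (center P).index = (P0 N P ⊓ Cx t).relIndex P := by rw [e1]; rfl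
  rw [e2, ← relIndex_mul_relIndex _ (P0 N P) P inf_le_left inf_le_left, d.relIndex_P0, ha, pow_one, sq,
    inf_relIndex_left]
  congr 1
  have h1 : (Cx t).relIndex (P0 N P) ≤ p := by
    have := relIndex_le_of_le_right (H := Cx t) (K := P0 N P) (L := P) inf_le_left
      (by rw [d.relIndex_x ht htc]; exact (pow_pos hp.out.pos a).ne')
    rwa [d.relIndex_x ht htc, ha, pow_one] at this
  have h2 : (Cx t).relIndex (P0 N P) ≠ 1 := by
    intro h
    have h3 := relIndex_eq_one.1 h hx0
    exact ht0 (d.cx_le_P0 hx0 hxc ⟨commute_iff_mem.2 (commute_iff_mem.1 h3).symm, ht⟩)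
  have h3 : (Cx t).relIndex (P0 N P) ∣ p ^ k := by
    rw [← d.hPk]
    exact (relIndex_dvd_card _ _).trans (Subgroup.card_dvd_of_le inf_le_left)
  obtain ⟨j, -, hj⟩ := (Nat.dvd_prime_pow hp.out).1 h3
  rw [hj] at h1 h2 ⊢
  have hj1 : j ≤ 1 := (Nat.pow_le_pow_iff_right hp.out.one_lt).1 (by rwa [pow_one])
  interval_cases j
  · exact absurd (pow_zero p) h2
  · exact pow_one p

end Dat

theorem relIndex_mul_index_sup (C N : Subgroup G) [N.Normal] :
    C.relIndex N * (C ⊔ N).index = C.index := by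
  have e1 : N.relIndex C * (C ⊔ N).index = N.index := by
    rw [← relIndex_sup_right]
    exact relIndex_mul_index le_sup_right
  have e2 : C.relIndex N * N.index = N.relIndex C * C.index := by
    rw [← inf_relIndex_right, relIndex_mul_index inf_le_right,
        ← inf_relIndex_right N, relIndex_mul_index inf_le_right, inf_comm]
  have hne : N.relIndex C ≠ 0 := Subgroup.index_ne_zero_of_finite (H := N.subgroupOf C)
  apply Nat.eq_of_mul_eq_mul_left (Nat.pos_of_ne_zero hne)
  calc N.relIndex C * (C.relIndex N * (C ⊔ N).index) = C.relIndex N * (N.relIndex C * (C ⊔ N).index) := by ring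
    _ = N.relIndex C * C.index := by rw [e1, e2]

/-- the final theorem -/
theorem main {m n : ℕ} (hm : 1 < m) (hn : 1 < n) (hcop : m.Coprime n)
    (h : Set.range (fun x : G => (Subgroup.centralizer ({x} : Set G)).index) = ({1, m, m * n} : Set ℕ)) :
    ∃ q a k : ℕ, q.Prime ∧ m = q ^ a ∧ ∃ N : Subgroup G, N.Normal ∧ (Nat.card N).Coprime q ∧ N.index = q ^ k ∧
      ∀ P : Sylow q G, Dat q a n k N (P : Subgroup G) := by
  have hidx : ∀ g : G, (Cx g).index = 1 ∨ (Cx g).index = m ∨ (Cx g).index = m * n := by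
    intro g
    have : (Cx g).index ∈ ({1, m, m * n} : Set ℕ) := by rw [← h]; exact ⟨g, rfl⟩
    exact this
  have hex1 : ∃ g : G, (Cx g).index = m := by
    have : m ∈ Set.range (fun x : G => (Subgroup.centralizer ({x} : Set G)).index) := by rw [h]; simp
    exact this
  have hexn : ∃ g : G, (Cx g).index = m * n := by
    have : m * n ∈ Set.range (fun x : G => (Subgroup.centralizer ({x} : Set G)).index) := by rw [h]; simp
    exact this
  have hsame : ∀ q : ℕ, q.Prime → q ∣ m → SameP G q (m.factorization q) := by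
    intro q hq hqm
    refine ⟨(hq.dvd_iff_one_le_factorization (by omega)).1 hqm, fun g hg => ?_⟩
    rcases hidx g with h1 | h1 | h1
    · exact absurd (Cx_index_eq_one_iff.1 h1) hg
    · rw [h1]
    · rw [h1, Nat.factorization_mul (by omega) (by omega), Finsupp.add_apply,
        Nat.factorization_eq_zero_of_not_dvd (n := n), add_zero]
      intro hqn
      exact hq.one_lt.ne' (Nat.eq_one_of_dvd_coprimes hcop hqm hqn)
  obtain ⟨p, hpp, hpm⟩ := Nat.exists_prime_and_dvd (show m ≠ 1 by omega)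
  haveI : Fact p.Prime := ⟨hpp⟩
  have hne : ∃ g : G, g ∉ center G := by
    obtain ⟨g, hg⟩ := hex1
    refine ⟨g, fun hc => ?_⟩
    rw [Cx_index_eq_one_iff.2 hc] at hg
    omega
  have hS := hsame p hpp hpm
  have hmp : m = p ^ m.factorization p := by
    have h1 : m = p ^ m.primeFactorsList.length := by
      apply Nat.eq_prime_pow_of_unique_prime_dvd (by omega)
      intro q hq hqm
      haveI : Fact q.Prime := ⟨hq⟩
      exact (sameP_unique hS (hsame q hq hqm) hne).symm
    conv_lhs => rw [h1]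
    congr 1
    conv_rhs => rw [h1]
    rw [hpp.factorization_pow, Finsupp.single_eq_same]
  set a := m.factorization p with ha
  obtain ⟨N, hNn, hNc, k, hNk⟩ := Transfer.hasNPC_iff_exists.1 (hasNPC_of_sameP hS)
  refine ⟨p, a, k, hpp, hmp, N, hNn, hNc, hNk, fun P => ?_⟩
  have hpn : p.Coprime n := hcop.coprime_dvd_left hpm
  have hcomp := Transfer.isComplement'_of_card_of_index hNc hNk P
  -- the arithmetic
  have harith : ∀ g : G, ∀ e : ℕ, p.Coprime e → (Cx g).index = p ^ a * e →
      (Cx g).relIndex N = e ∧ (Cx g ⊔ N).index = p ^ a := by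
    intro g e he hge
    have h1 := relIndex_mul_index_sup (Cx g) N
    rw [hge] at h1
    have h2 : ((Cx g).relIndex N).Coprime p :=
      hNc.coprime_dvd_left (relIndex_dvd_card _ _)
    have h3 : (Cx g ⊔ N).index ∣ p ^ k := by rw [← hNk]; exact index_dvd_of_le le_sup_right
    obtain ⟨j, -, hj⟩ := (Nat.dvd_prime_pow hpp).1 h3
    rw [hj] at h1
    have h4 : (Cx g).relIndex N ∣ e :=
      (h2.pow_right a).dvd_of_dvd_mul_left (Dvd.intro _ h1)
    have h5 : e ∣ (Cx g).relIndex N :=
      (he.symm.pow_right j).dvd_of_dvd_mul_right (Dvd.intro_left _ h1.symm)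
    have h6 := Nat.dvd_antisymm h4 h5
    refine ⟨h6, ?_⟩
    rw [h6, mul_comm] at h1
    have he0 : 0 < e := by
      apply Nat.pos_of_ne_zero
      rintro rfl
      rw [Nat.coprime_zero_right] at he
      exact hpp.one_lt.ne' he
    rw [hj]
    exact Nat.eq_of_mul_eq_mul_right he0 h1
  have hnc : ∀ g : G, (Cx g).index ≠ 1 → g ∉ center G := fun g hg hc => hg (Cx_index_eq_one_iff.2 hc)
  have hcase : ∀ g : G, g ∉ center G → (Cx g).index = p ^ a * 1 ∨ (Cx g).index = p ^ a * n := by
    intro g hg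
    rcases hidx g with h1 | h1 | h1
    · exact absurd (Cx_index_eq_one_iff.1 h1) hg
    · left; rw [h1, mul_one]; exact hmp
    · right; rw [h1]; congr 1
  refine ⟨hn, hpn, hNn, hNc, ?_, hcomp.sup_eq_top, hcomp.disjoint.eq_bot, hS, ?_, ?_, ?_, ?_⟩
  · rw [← hcomp.symm.index_eq_card, hNk]
  · intro g hg
    rcases hcase g hg with h1 | h1
    · exact (harith g 1 (Nat.coprime_one_right p) h1).2
    · exact (harith g n hpn h1).2
  · intro g hg
    rcases hcase g hg with h1 | h1
    · exact Or.inl (harith g 1 (Nat.coprime_one_right p) h1).1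
    · exact Or.inr (harith g n hpn h1).1
  · obtain ⟨g, hg⟩ := hex1
    refine ⟨g, hnc g (by omega), (harith g 1 (Nat.coprime_one_right p) ?_).1⟩
    rw [hg, mul_one]; exact hmp
  · obtain ⟨g, hg⟩ := hexn
    have h1 : (Cx g).index ≠ 1 := by
      rw [hg]
      have : 1 < m * n := by nlinarith
      omega
    refine ⟨g, hnc g h1, (harith g n hpn ?_).1⟩
    rw [hg]; congr 1

end Cfsg.Agent.H15Cls
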